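import Cfsg.Agent.Lib.Helper60.AschU.U22Aux
import Cfsg.Agent.Lib.Helper62.AschU.A3

set_option autoImplicit false

/-! # Piece U22 of the unitary Aschbacher campaign (final form) -/

namespace Cfsg.Agent.Lib.Helper60.AschU

open Cfsg Cfsg.Geo Matrix Cfsg.Agent.Lib.Helper13 Cfsg.Agent.Lib.Helper13.Asch
  Cfsg.Agent.Lib.Helper5.SUAsch Cfsg.Agent.Lib.Helper9.AschU
open scoped Kronecker MatrixGroups

variable {F : Type*} [Field F] [Fintype F] {n q : ℕ}

/-- U22 -/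
theorem ucls_two_two (hF : Fintype.card F = q ^ 2) {H : Subgroup (GL (Fin n) F)}
    (hH : H ≤ GU n F q) (e : Fin n ≃ Fin 2 × Fin 2) (P : GL (Fin n) F)
    (f₁ f₂ : (Fin 2 → F) → (Fin 2 → F) → F)
    (_h₁ : IsUnitaryFormPow q f₁) (_h₂ : IsUnitaryFormPow q f₂)
    (hT : IsTensorFormStructure (fun x : F => x ^ q) (hermForm n F q) f₁ f₂ e P)
    (hHT : H ≤ tensorProductSubgroup 2 2 e P) : UCls n q H :=
  ucls_two_two_aux hF
    (fun hn B hB hsym a hBB hsim =>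
      Cfsg.Agent.Lib.Helper62.AschU.ucls_of_gram hF hn hH B hB hsym a hBB hsim)
    e P f₁ f₂ hT hHT

end Cfsg.Agent.Lib.Helper60.AschU
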