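import Cfsg.Agent.Lib.Helper9.AschU.Defs
import Cfsg.Agent.Lib.Helper9.AschU.Base
import Cfsg.Agent.Lib.Helper12.Asch.K2b
import Cfsg.Agent.Lib.Helper35.Asch.Kron
import Cfsg.Agent.Lib.Helper60.Asch.Cls

set_option autoImplicit false

/-! # Piece U22 of the unitary Aschbacher campaign: the tensor product of two unitary planes -/

namespace Cfsg.Agent.Lib.Helper60.AschU

open Cfsg Cfsg.Geo Matrix Cfsg.Agent.Lib.Helper13 Cfsg.Agent.Lib.Helper13.Asch
  Cfsg.Agent.Lib.Helper5.SUAsch Cfsg.Agent.Lib.Helper9.AschU Cfsg.Agent.Lib.Helper12.Asch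
open scoped Kronecker MatrixGroups

section gen

variable {F : Type*} [Field F]

/-- the standard alternating `2 × 2` matrix -/
def u22J : Matrix (Fin 2) (Fin 2) F := !![0, 1; -1, 0]

lemma u22J_sim (x : Matrix (Fin 2) (Fin 2) F) : xᵀ * u22J * x = x.det • u22J := by
  ext i j
  fin_cases i <;> fin_cases j <;>
    simp [u22J, Matrix.mul_apply, Fin.sum_univ_two, Matrix.det_fin_two] <;> ring

lemma u22J_adj (G : Matrix (Fin 2) (Fin 2) F) : G * (u22J * Gᵀ * u22J) = (-G.det) • 1 := by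
  ext i j
  fin_cases i <;> fin_cases j <;>
    simp [u22J, Matrix.mul_apply, Fin.sum_univ_two, Matrix.det_fin_two, Matrix.vecMul,
      dotProduct] <;> ring

lemma u22J_sq : (u22J : Matrix (Fin 2) (Fin 2) F) * u22J = (-1 : F) • 1 := by
  ext i j
  fin_cases i <;> fin_cases j <;> simp [u22J, Matrix.mul_apply, Fin.sum_univ_two]

lemma u22J_T : (u22J : Matrix (Fin 2) (Fin 2) F)ᵀ = (-1 : F) • u22J := by
  ext i j
  fin_cases i <;> fin_cases j <;> simp [u22J]

/-- the symmetric matrix `J ⊗ J` -/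
def u22K : Matrix (Fin 2 × Fin 2) (Fin 2 × Fin 2) F := u22J ⊗ₖ u22J

lemma u22K_T : (u22K : Matrix (Fin 2 × Fin 2) (Fin 2 × Fin 2) F)ᵀ = u22K := by
  unfold u22K
  rw [← Matrix.kroneckerMap_transpose, u22J_T, Matrix.smul_kronecker, Matrix.kronecker_smul,
    smul_smul]
  simp

lemma u22K_sq : (u22K : Matrix (Fin 2 × Fin 2) (Fin 2 × Fin 2) F) * u22K = 1 := by
  unfold u22K
  rw [← Matrix.mul_kronecker_mul, u22J_sq, Matrix.smul_kronecker, Matrix.kronecker_smul,
    smul_smul, Matrix.one_kronecker_one]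
  simp

lemma u22K_diag (a : Fin 2 × Fin 2) : (u22K : Matrix (Fin 2 × Fin 2) (Fin 2 × Fin 2) F) a a = 0 := by
  obtain ⟨a, b⟩ := a
  fin_cases a <;> simp [u22K, u22J, Matrix.kroneckerMap_apply]

lemma u22K_sim (x y : Matrix (Fin 2) (Fin 2) F) :
    (x ⊗ₖ y)ᵀ * u22K * (x ⊗ₖ y) = (x.det * y.det) • u22K := by
  unfold u22K
  rw [← Matrix.kroneckerMap_transpose, ← Matrix.mul_kronecker_mul, ← Matrix.mul_kronecker_mul,
    u22J_sim, u22J_sim, Matrix.smul_kronecker, Matrix.kronecker_smul, smul_smul]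

lemma u22K_adj (G₁ G₂ : Matrix (Fin 2) (Fin 2) F) :
    (G₁ ⊗ₖ G₂) * (u22K * (G₁ ⊗ₖ G₂)ᵀ * u22K) = (G₁.det * G₂.det) • 1 := by
  unfold u22K
  rw [← Matrix.kroneckerMap_transpose, ← Matrix.mul_kronecker_mul, ← Matrix.mul_kronecker_mul,
    ← Matrix.mul_kronecker_mul, u22J_adj, u22J_adj, Matrix.smul_kronecker, Matrix.kronecker_smul,
    smul_smul, Matrix.one_kronecker_one]
  congr 1
  ring

lemma u22K_map (σ : F →+* F) :
    (u22K : Matrix (Fin 2 × Fin 2) (Fin 2 × Fin 2) F).map σ = u22K := by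
  ext ⟨a, b⟩ ⟨c, d⟩
  fin_cases a <;> fin_cases b <;> fin_cases c <;> fin_cases d <;>
    simp [u22K, u22J, Matrix.kroneckerMap_apply]

section rx

variable {ι κ : Type} [Fintype ι] [DecidableEq ι] [Fintype κ] [DecidableEq κ]

/-- reindexing along `e` -/
def u22r (e : ι ≃ κ) (A : Matrix κ κ F) : Matrix ι ι F := Matrix.reindex e.symm e.symm A

omit [Fintype ι] [DecidableEq ι] [Fintype κ] [DecidableEq κ] in
lemma u22r_apply (e : ι ≃ κ) (A : Matrix κ κ F) (i j : ι) : u22r e A i j = A (e i) (e j) := rfl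

omit [DecidableEq ι] [DecidableEq κ] in
lemma u22r_mul (e : ι ≃ κ) (A B : Matrix κ κ F) : u22r e (A * B) = u22r e A * u22r e B := by
  simp [u22r, Matrix.reindex_apply, Matrix.submatrix_mul_equiv]

omit [Fintype ι] [Fintype κ] in
lemma u22r_one (e : ι ≃ κ) : u22r e (1 : Matrix κ κ F) = 1 := by
  simp [u22r, Matrix.reindex_apply]

omit [Fintype ι] [DecidableEq ι] [Fintype κ] [DecidableEq κ] in
lemma u22r_smul (e : ι ≃ κ) (c : F) (A : Matrix κ κ F) : u22r e (c • A) = c • u22r e A := rfl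

omit [Fintype ι] [DecidableEq ι] [Fintype κ] [DecidableEq κ] in
lemma u22r_T (e : ι ≃ κ) (A : Matrix κ κ F) : (u22r e A)ᵀ = u22r e Aᵀ := rfl

omit [Fintype ι] [DecidableEq ι] [Fintype κ] [DecidableEq κ] in
lemma u22r_map (e : ι ≃ κ) (σ : F →+* F) (A : Matrix κ κ F) :
    (u22r e A).map σ = u22r e (A.map σ) := rfl

end rx

end gen

variable {F : Type*} [Field F] [Fintype F] {n q : ℕ}

lemma u22_gram (hF : Fintype.card F = q ^ 2) (M : Matrix (Fin n) (Fin n) F) (i j : Fin n) :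
    hermForm n F q (M *ᵥ Pi.single i 1) (M *ᵥ Pi.single j 1) = (Mᵀ * M.map (frobQ hF)) i j := by
  rw [hermForm_def, Matrix.mul_apply]
  apply Finset.sum_congr rfl
  intro k _
  simp

omit [Fintype F] in
lemma u22_formOfGram_single {κ : Type} [Fintype κ] [DecidableEq κ] (hq : q ≠ 0) (G : Matrix κ κ F)
    (a b : κ) : formOfGram (fun x : F => x ^ q) G (Pi.single a 1) (Pi.single b 1) = G a b := by
  unfold formOfGram
  rw [Finset.sum_eq_single a, Finset.sum_eq_single b]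
  · simp
  · intro b' _ hb'
    simp [hb', hq]
  · intro h; exact absurd (Finset.mem_univ _) h
  · intro a' _ ha'
    simp [Pi.single_apply, ha']
  · intro h; exact absurd (Finset.mem_univ _) h

/-- U22, with the black box A3 (`ucls_of_gram`) as a hypothesis -/
theorem ucls_two_two_aux (hF : Fintype.card F = q ^ 2) {H : Subgroup (GL (Fin n) F)}
    (ucls_of_gram : ∀ (_ : 2 ≤ n) (B : Matrix (Fin n) (Fin n) F) (_ : IsUnit B.det)
      (_ : (Bᵀ = B ∧ Odd q) ∨ (Bᵀ = -B ∧ ∀ i, B i i = 0)) (a : F)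
      (_ : B.map (fun x => x ^ q) * B = a • 1)
      (_ : ∀ h ∈ H, ∃ c : F, (h : Matrix (Fin n) (Fin n) F)ᵀ * B *
        (h : Matrix (Fin n) (Fin n) F) = c • B), UCls n q H)
    (e : Fin n ≃ Fin 2 × Fin 2) (P : GL (Fin n) F)
    (f₁ f₂ : (Fin 2 → F) → (Fin 2 → F) → F)
    (hT : IsTensorFormStructure (fun x : F => x ^ q) (hermForm n F q) f₁ f₂ e P)
    (hHT : H ≤ tensorProductSubgroup 2 2 e P) : UCls n q H := by
  classical
  have hn : 2 ≤ n := by
    have := Fintype.card_congr e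
    simp at this
    omega
  obtain ⟨c, hc, hT⟩ := hT
  set σ := frobQ hF with hσ
  set M : Matrix (Fin n) (Fin n) F := (P : Matrix (Fin n) (Fin n) F) with hM
  set Mi : Matrix (Fin n) (Fin n) F := ((P⁻¹ : GL (Fin n) F) : Matrix (Fin n) (Fin n) F) with hMi
  have hMMi : M * Mi = 1 := val_mul_inv P
  have hMiM : Mi * M = 1 := val_inv_mul P
  set G₁ := gramMatrix f₁ with hG₁
  set G₂ := gramMatrix f₂ with hG₂
  set K : Matrix (Fin n) (Fin n) F := u22r e u22K with hK
  set Jn := Mᵀ * M.map σ with hJn0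
  have hJn : Jn = c • u22r e (G₁ ⊗ₖ G₂) := by
    ext i j
    rw [hJn0, ← u22_gram]
    have h3 := hT (Pi.single (e i) 1) (Pi.single (e j) 1)
    have e1 : ∀ i, (Pi.single (e i) 1 : Fin 2 × Fin 2 → F) ∘ e = Pi.single i 1 := by
      intro i
      ext k
      simp [Pi.single_apply]
    rw [e1, e1] at h3
    rw [h3, u22_formOfGram_single (by have := two_le_of_card_sq hF; omega)]
    rfl
  have hKT : Kᵀ = K := by rw [hK, u22r_T, u22K_T]
  have hKK : K * K = 1 := by rw [hK, ← u22r_mul, u22K_sq, u22r_one]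
  have hKd : ∀ a, K a a = 0 := fun a => u22K_diag (e a)
  have hKσ : K.map σ = K := by rw [hK, u22r_map, u22K_map]
  set D : F := c ^ 2 * (G₁.det * G₂.det) with hD
  have hadj : Jn * (K * Jnᵀ * K) = D • 1 := by
    rw [hJn, hK, Matrix.transpose_smul, u22r_T]
    simp only [Matrix.mul_smul, Matrix.smul_mul, smul_smul]
    rw [← u22r_mul, ← u22r_mul, ← u22r_mul, u22K_adj, u22r_smul, u22r_one, smul_smul, hD]
    congr 1
    ring
  set B : Matrix (Fin n) (Fin n) F := Miᵀ * K * Mi with hB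
  have hσM : M.map σ * Mi.map σ = 1 := by
    rw [← Matrix.map_mul, hMMi]
    simp
  have hBT : Bᵀ = B := by
    rw [hB]
    simp only [Matrix.transpose_mul, Matrix.transpose_transpose, hKT, Matrix.mul_assoc]
  have hBdet : IsUnit B.det := by
    rw [hB, Matrix.det_mul, Matrix.det_mul, Matrix.det_transpose]
    have h1 : IsUnit Mi.det := Matrix.isUnit_det_of_left_inverse hMMi
    have h2 : IsUnit K.det := Matrix.isUnit_det_of_left_inverse hKK
    exact (h1.mul h2).mul h1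
  set X := Mi.map σ * Miᵀ with hX
  have hJX : Jn * X = 1 := by
    calc Mᵀ * M.map σ * (Mi.map σ * Miᵀ) = Mᵀ * (M.map σ * Mi.map σ) * Miᵀ := by
          simp only [Matrix.mul_assoc]
      _ = 1 := by rw [hσM, Matrix.mul_one, ← Matrix.transpose_mul, hMiM, Matrix.transpose_one]
  have hXJ : X * Jn = 1 := mul_eq_one_comm.1 hJX
  have hKJK : K * Jnᵀ * K = D • X := by
    calc K * Jnᵀ * K = (X * Jn) * (K * Jnᵀ * K) := by rw [hXJ, Matrix.one_mul]
      _ = X * (Jn * (K * Jnᵀ * K)) := by rw [Matrix.mul_assoc]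
      _ = D • X := by rw [hadj, Matrix.mul_smul, Matrix.mul_one]
  have hKXK : D • (K * X * K) = Jnᵀ := by
    calc D • (K * X * K) = K * (D • X) * K := by rw [Matrix.mul_smul, Matrix.smul_mul]
      _ = (K * K) * Jnᵀ * (K * K) := by rw [← hKJK]; simp only [Matrix.mul_assoc]
      _ = Jnᵀ := by rw [hKK, Matrix.one_mul, Matrix.mul_one]
  have hBσ : B.map σ = (Mi.map σ)ᵀ * K * Mi.map σ := by
    rw [hB, Matrix.map_mul, Matrix.map_mul, hKσ, Matrix.transpose_map]
  have hmain : D • (B.map σ * B) = 1 := by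
    calc D • (B.map σ * B) = (Mi.map σ)ᵀ * (D • (K * X * K)) * Mi := by
          rw [hBσ, hB, Matrix.mul_smul, Matrix.smul_mul, hX]
          simp only [Matrix.mul_assoc]
      _ = (Mi.map σ)ᵀ * ((M.map σ)ᵀ * M) * Mi := by
          rw [hKXK, hJn0, Matrix.transpose_mul, Matrix.transpose_transpose]
      _ = ((M.map σ) * (Mi.map σ))ᵀ * (M * Mi) := by
          rw [Matrix.transpose_mul]
          simp only [Matrix.mul_assoc]
      _ = 1 := by rw [hσM, hMMi, Matrix.transpose_one, Matrix.mul_one]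
  have hD0 : D ≠ 0 := by
    intro h
    rw [h, zero_smul] at hmain
    have := congrFun (congrFun hmain ⟨0, by omega⟩) ⟨0, by omega⟩
    simp at this
  have hBB : B.map (fun x => x ^ q) * B = D⁻¹ • 1 := by
    have h3 : B.map (fun x => x ^ q) = B.map σ := rfl
    rw [h3, ← hmain, smul_smul, inv_mul_cancel₀ hD0, one_smul]
  have hsim : ∀ h ∈ H, ∃ c : F, (h : Matrix (Fin n) (Fin n) F)ᵀ * B *
      (h : Matrix (Fin n) (Fin n) F) = c • B := by
    intro h hh
    obtain ⟨x, y, hxy⟩ := (Cfsg.Agent.Lib.Helper35.Asch.mem_tensor_iff e P h).1 (hHT hh)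
    refine ⟨(x : Matrix (Fin 2) (Fin 2) F).det * (y : Matrix (Fin 2) (Fin 2) F).det, ?_⟩
    set S := u22r e ((x : Matrix (Fin 2) (Fin 2) F) ⊗ₖ (y : Matrix (Fin 2) (Fin 2) F)) with hS0
    have hS : Sᵀ * K * S =
        ((x : Matrix (Fin 2) (Fin 2) F).det * (y : Matrix (Fin 2) (Fin 2) F).det) • K := by
      rw [hS0, hK, u22r_T, ← u22r_mul, ← u22r_mul, u22K_sim, u22r_smul]
    have hh' : (h : Matrix (Fin n) (Fin n) F) = M * S * Mi := hxy
    calc (h : Matrix (Fin n) (Fin n) F)ᵀ * B * (h : Matrix (Fin n) (Fin n) F)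
        = Miᵀ * (Sᵀ * ((Mi * M)ᵀ * K * (Mi * M)) * S) * Mi := by
          rw [hh', hB]
          simp only [Matrix.transpose_mul, Matrix.mul_assoc]
      _ = Miᵀ * (Sᵀ * K * S) * Mi := by
          rw [hMiM, Matrix.transpose_one, Matrix.one_mul, Matrix.mul_one]
      _ = _ := by rw [hS, Matrix.mul_smul, Matrix.smul_mul]
  have hsym : (Bᵀ = B ∧ Odd q) ∨ (Bᵀ = -B ∧ ∀ i, B i i = 0) := by
    by_cases hq : Odd q
    · exact Or.inl ⟨hBT, hq⟩
    · right
      have h2 : (2 : F) = 0 := by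
        apply Cfsg.Agent.Lib.Helper60.Asch.two_eq_zero_of_not_odd
        rw [hF, pow_two]
        intro h
        exact hq (Nat.odd_mul.1 h).1
      refine ⟨?_, fun i => ?_⟩
      · rw [hBT]
        ext a b
        rw [Matrix.neg_apply]
        linear_combination (B a b) * h2
      · have h3 := alt_of_symm h2 K hKT hKd (fun a => Mi a i)
        rw [hB, Matrix.mul_assoc, Matrix.mul_apply]
        exact h3
  exact ucls_of_gram hn B hBdet hsym D⁻¹ hBB hsim

end Cfsg.Agent.Lib.Helper60.AschU
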