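import Cfsg.Agent.Lib.Helper60.AschU.UK2bAux
import Cfsg.Agent.Lib.Helper70.AschU.U7t
import Cfsg.Agent.Lib.Helper5.AschU.A12

set_option autoImplicit false

/-! # Piece UK2b of the unitary Aschbacher campaign (final form) -/

namespace Cfsg.Agent.Lib.Helper60.AschU

open Cfsg Cfsg.Geo Matrix Cfsg.Agent.Lib.Helper13 Cfsg.Agent.Lib.Helper13.Asch
  Cfsg.Agent.Lib.Helper5.SUAsch Cfsg.Agent.Lib.Helper9.AschU
open scoped Kronecker MatrixGroups

variable {F : Type*} [Field F] [Fintype F] {n q : ℕ}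

/-- UK2b -/
theorem utensor_of_family (hF : Fintype.card F = q ^ 2) (hn : 2 ≤ n)
    {H : Subgroup (GL (Fin n) F)} (hH : H ≤ GU n F q) (hQP : QP H)
    {t : ℕ} (ht : 2 ≤ t) (P : Fin t → Subgroup (GL (Fin n) F)) (hPH : ∀ i, P i ≤ H)
    (hcomm : ∀ i j, i ≠ j → ∀ x ∈ P i, ∀ y ∈ P j, x * y = y * x)
    (hperm : ∀ h ∈ H, ∃ σ : Equiv.Perm (Fin t), ∀ i,
      (P i).map (MulAut.conj h).toMonoidHom = P (σ i))
    (htrans : ∀ i j, ∃ h ∈ H, (P i).map (MulAut.conj h).toMonoidHom = P j)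
    (hns : ∀ i, ¬ P i ≤ scalars (Fin n) F) (hperf : ∀ i, ⁅P i, P i⁆ = P i) :
    UCls n q H ∨ E23 n q H :=
  utensor_of_family_aux hF hn hH hQP
    (fun ht hm e P hs => Cfsg.Agent.Lib.Helper70.AschU.tensor_power_form hF ht hm e P hs)
    (fun hNU hN henv b hb hnd hfix =>
      Cfsg.Agent.Lib.Helper5.AschU.ucls_of_fixes_bilin hF hn hH hNU hN henv b hb hnd hfix)
    ht P hPH hcomm hperm htrans hns hperf

end Cfsg.Agent.Lib.Helper60.AschU
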